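import Cfsg.Agent.Lib.Symp.Isog

/-!
# `Sp₄` in characteristic two: vectors, transvections, symplectic frames
-/

set_option autoImplicit false

namespace Cfsg.Lib.Sp4E

open Matrix Cfsg.Lib.Symp

/-- The natural module. -/
abbrev V (F : Type*) := Fin 2 ⊕ Fin 2 → F

/-- The symplectic group. -/
abbrev Sp (F : Type*) [Field F] := symplecticGroup (Fin 2) F

variable {F : Type*} [Field F]

/-- The form. -/
noncomputable abbrev f : LinearMap.BilinForm F (V F) := bil (Fin 2) F

/-- The action on vectors. -/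
def ac (A : Sp F) : V F →ₗ[F] V F := A.1.mulVecLin

/-- The transvection with centre `u`. -/
noncomputable def tv (u : V F) : Sp F := tvSp u 1

theorem ac_def (A : Sp F) (x : V F) : ac A x = A.1 *ᵥ x := rfl

theorem ac_mul (A B : Sp F) (x : V F) : ac (A * B) x = ac A (ac B x) :=
  (mulVec_mulVec x A.1 B.1).symm

theorem ac_one (x : V F) : ac 1 x = x := one_mulVec _

theorem ac_inv_ac (A : Sp F) (x : V F) : ac A⁻¹ (ac A x) = x := inv_mulVec_mulVec A x

theorem ac_ac_inv (A : Sp F) (x : V F) : ac A (ac A⁻¹ x) = x := mulVec_inv_mulVec A x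

theorem f_ac (A : Sp F) (x y : V F) : f (ac A x) (ac A y) = f x y := bil_mulVec A x y

theorem f_ac_left (A : Sp F) (x y : V F) : f (ac A x) y = f x (ac A⁻¹ y) := by
  rw [← f_ac A x, ac_ac_inv]

theorem ac_ne {A : Sp F} {x : V F} (h : x ≠ 0) : ac A x ≠ 0 := fun e =>
  h (by rw [← ac_inv_ac A x, e, map_zero])

theorem ac_inv_of {A : Sp F} {x y : V F} (h : ac A x = y) : ac A⁻¹ y = x := by rw [← h, ac_inv_ac]

theorem ext' {A B : Sp F} (h : ∀ x, ac A x = ac B x) : A = B := sp_ext h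

theorem f_self (x : V F) : f x x = 0 := bil_isAlt _ _ x

theorem nd {x : V F} (h : ∀ y, f y x = 0) : x = 0 := (bil_nondegenerate (Fin 2) F).2 x h

theorem exists_one {x : V F} (h : x ≠ 0) : ∃ r, f r x = 1 := by
  obtain ⟨y, hy⟩ := not_forall.1 (mt nd h)
  exact ⟨(f y x)⁻¹ • y, by simp [hy]⟩

theorem ac_tv (u x : V F) : ac (tv u) x = x + f x u • u := by
  rw [ac_def, tv, tvSp, tvMat_mulVec, one_mul]

theorem conj_tv (A : Sp F) (u : V F) : A * tv u * A⁻¹ = tv (ac A u) := conj_tvSp A u 1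

theorem exists_perp (a b : V F) : ∃ x, x ≠ 0 ∧ f x a = 0 ∧ f x b = 0 := by
  have := LinearMap.ker_ne_bot_of_finrank_lt (f := (f.flip a).prod (f.flip b)) (by simp)
  obtain ⟨x, hx, h0⟩ := Submodule.exists_mem_ne_zero_of_ne_bot this
  exact ⟨x, h0, congrArg Prod.fst hx, congrArg Prod.snd hx⟩

variable [CharP F 2]

theorem f_comm (x y : V F) : f x y = f y x := by
  rw [← (bil_isAlt (Fin 2) F).neg_eq, CharTwo.neg_eq]

theorem add_self (x : V F) : x + x = 0 := by
  rw [← two_smul F, show (2 : F) = 0 from CharTwo.two_eq_zero, zero_smul]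

theorem eq_of_add {x y : V F} (h : x + y = 0) : x = y := by
  rw [← add_zero x, ← add_self y, ← add_assoc, h, zero_add]

theorem smul_cancel {a b : F} {x : V F} (hx : x ≠ 0) (h : a • x = b • x) : a = b :=
  smul_left_injective F hx h

theorem tv_mul_self (u : V F) : tv u * tv u = 1 := ext' fun x => by
  simp only [ac_mul, ac_tv, ac_one, map_add, map_smul, LinearMap.add_apply, LinearMap.smul_apply,
    f_self]
  match_scalars <;> grind

theorem tv_inv (u : V F) : (tv u)⁻¹ = tv u := inv_eq_of_mul_eq_one_right (tv_mul_self u)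

theorem tv_eq_one {u : V F} (h : tv u = 1) : u = 0 := by
  by_contra h0
  obtain ⟨r, hr⟩ := exists_one h0
  have := ac_tv u r
  rw [h, ac_one, hr, one_smul] at this
  exact h0 (by simpa using this)

theorem tv_zero : tv (0 : V F) = 1 := ext' fun x => by simp [ac_tv, ac_one]

theorem tv_inj {u v : V F} (h : tv u = tv v) : u = v := by
  by_cases h0 : u = 0
  · subst h0; exact (tv_eq_one (h.symm.trans tv_zero)).symm
  obtain ⟨r, hr⟩ := exists_one h0
  have h1 := ac_tv u r
  rw [h, ac_tv, hr, one_smul, add_right_inj] at h1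
  have h2 : f r v * f r v = 1 := by rw [← hr, ← h1]; simp
  have h3 : f r v = 1 := by grind
  rw [← h1, h3, one_smul]

theorem fix_of_comm {A : Sp F} {u : V F} (h : A * tv u = tv u * A) : ac A u = u :=
  tv_inj (by rw [← conj_tv, h, mul_inv_cancel_right])

theorem comm_of_fix {A : Sp F} {u : V F} (h : ac A u = u) : A * tv u = tv u * A := by
  rw [← mul_inv_eq_iff_eq_mul, conj_tv, h]

theorem ext_pair {A B : Sp F} {u w : V F} (h : f u w ≠ 0) (hu : ac A u = ac B u)
    (hw : ac A w = ac B w) (hp : ∀ x, f x u = 0 → f x w = 0 → ac A x = ac B x) : A = B :=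
  ext' fun x => by
    have h1 := hp (x + (f x w / f u w) • u + (f x u / f u w) • w)
      (by simp [f_self, f_comm w u]; grind) (by simp [f_self]; grind)
    simpa only [map_add, map_smul, hu, hw, add_left_inj] using h1

theorem dual {u v : V F} (hu : u ≠ 0) (h : ∀ c : F, v ≠ c • u) : ∃ s, f s u = 0 ∧ f s v = 1 := by
  obtain ⟨r, hr⟩ := exists_one hu
  have h1 : v + f r v • u ≠ 0 := fun e => h _ (eq_of_add e)
  obtain ⟨y, hy⟩ := exists_one h1
  simp only [map_add, map_smul, smul_eq_mul] at hy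
  exact ⟨y + f y u • r, by simp [hr]; grind, by simp; grind⟩

/-- A symplectic frame. -/
structure Fr (a b r s : V F) : Prop where
  ab : f a b = 0
  ar : f a r = 1
  as : f a s = 0
  br : f b r = 0
  bs : f b s = 1
  rs : f r s = 0

theorem Fr.exists_sp {a b r s : V F} (h : Fr a b r s) :
    ∃ c : Sp F, ∀ i, ac c (Pi.single i 1) = Sum.elim ![a, b] ![r, s] i := by
  refine ⟨⟨of fun i j => Sum.elim ![a, b] ![r, s] j i, SymplecticGroup.mem_iff'.2 ?_⟩, fun i => ?_⟩
  · have key : ∀ i j, ((of fun i j => Sum.elim ![a, b] ![r, s] j i)ᵀ * J (Fin 2) F *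
        (of fun i j => Sum.elim ![a, b] ![r, s] j i)) i j =
        f (Sum.elim ![a, b] ![r, s] i) (Sum.elim ![a, b] ![r, s] j) := fun i j => by
      rw [Matrix.mul_assoc, bil_apply]; rfl
    have h1 := h.ab; have h2 := h.ar; have h3 := h.as; have h4 := h.br; have h5 := h.bs
    have h6 := h.rs
    ext (i | i) (j | j) <;> rw [key] <;> fin_cases i <;> fin_cases j <;>
      simp [J, f_self, CharTwo.neg_eq, f_comm b a, f_comm r a, f_comm s a, f_comm r b, f_comm s b,
        f_comm s r, *]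
  · ext k; simp [ac_def]

theorem coord_inl (x : V F) (i : Fin 2) : x (.inl i) = f x (Pi.single (.inr i) 1) := by
  rw [bil_single_inr_right, one_mul, CharTwo.neg_eq]

theorem coord_inr (x : V F) (i : Fin 2) : x (.inr i) = f x (Pi.single (.inl i) 1) := by
  rw [bil_single_inl_right, one_mul]

theorem Fr.eq_zero {a b r s : V F} (h : Fr a b r s) {x : V F} (ha : f x a = 0) (hb : f x b = 0)
    (hr : f x r = 0) (hs : f x s = 0) : x = 0 := by
  obtain ⟨c, hc⟩ := h.exists_sp
  have h1 : ∀ i, f (ac c⁻¹ x) (Pi.single i 1) = 0 := fun i => by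
    rw [f_ac_left, inv_inv, hc]
    rcases i with i | i <;> fin_cases i <;> assumption
  by_contra h0
  refine ac_ne (A := c⁻¹) h0 (funext fun i => ?_)
  rcases i with i | i
  · rw [coord_inl (ac _ _), h1]; rfl
  · rw [coord_inr (ac _ _), h1]; rfl

theorem exists_fr {a b : V F} (ha : a ≠ 0) (h : ∀ c : F, b ≠ c • a) (hab : f a b = 0) :
    ∃ r s, Fr a b r s := by
  have hb : b ≠ 0 := by simpa using h 0
  obtain ⟨s, h1, h2⟩ := dual ha h
  obtain ⟨r, h3, h4⟩ := dual hb (v := a) fun c e => by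
    have hc : c ≠ 0 := by rintro rfl; exact ha (by simpa using e)
    exact h c⁻¹ (by rw [e, inv_smul_smul₀ hc])
  exact ⟨r, s + f r s • a, hab, by rw [f_comm, h4], by simp [f_self, f_comm a s, h1],
    by rw [f_comm, h3], by simp [f_comm b s, f_comm b a, h2, hab], by simp [h4]; grind⟩

theorem perp_line {a b x : V F} (ha : a ≠ 0) (h : ∀ c : F, b ≠ c • a) (hab : f a b = 0)
    (hx : f x a = 0) (hy : f x b = 0) : ∃ p q : F, x = p • a + q • b := by
  obtain ⟨r, s, H⟩ := exists_fr ha h hab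
  refine ⟨f x r, f x s, eq_of_add (H.eq_zero ?_ ?_ ?_ ?_)⟩
  · simp [hx, f_self, f_comm b a, hab]
  · simp [hy, f_self, hab]
  · simp [H.ar, H.br]; grind
  · simp [H.as, H.bs]; grind

variable [Finite F]

theorem odd_order {u w : V F} (h : f u w ≠ 0) : Odd (orderOf (tv u * tv w)) := by
  by_contra hn
  obtain ⟨k, hk⟩ := Nat.not_odd_iff_even.1 hn
  have h0 := orderOf_pos (tv u * tv w)
  set g := tv u * tv w with hg
  have h1 : (g ^ k)⁻¹ = g ^ k := inv_eq_of_mul_eq_one_right (by rw [← pow_add, ← hk, pow_orderOf_eq_one])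
  have h2 : ∀ s : Sp F, s * g * s⁻¹ = g⁻¹ → g ^ k * s = s * g ^ k := fun s e => by
    rw [eq_comm, ← mul_inv_eq_iff_eq_mul, ← conj_pow, e, inv_pow, h1]
  have hu := fix_of_comm (h2 (tv u) (by
    rw [hg, ← mul_assoc, tv_mul_self, one_mul, _root_.mul_inv_rev, tv_inv, tv_inv]))
  have hw := fix_of_comm (h2 (tv w) (by
    rw [hg, ← mul_assoc, mul_inv_cancel_right, _root_.mul_inv_rev, tv_inv, tv_inv]))
  refine pow_ne_one_of_lt_orderOf (x := g) (n := k) (by omega) (by omega)
    (ext_pair h (by rw [hu, ac_one]) (by rw [hw, ac_one]) fun x hx hy => ?_)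
  rw [ac_one]
  clear h1 h2 hu hw hk
  induction k with
  | zero => rw [pow_zero, ac_one]
  | succ k ih => rw [pow_succ, ac_mul, hg, ac_mul, ac_tv w, hy, zero_smul, add_zero, ac_tv, hx,
      zero_smul, add_zero, ← hg, ih]

omit [CharP F 2] [Finite F] in
theorem dih {G : Type*} [Group G] {s t : G} (hs : s * s = 1) (ht : t * t = 1) {k : ℕ}
    (h : (s * t) ^ (2 * k + 1) = 1) : ∃ m : ℕ, (s * t) ^ m * s * ((s * t) ^ m)⁻¹ * s *
      ((s * t) ^ m * s * ((s * t) ^ m)⁻¹)⁻¹ = t := by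
  have hs' := inv_eq_of_mul_eq_one_right hs
  set g := s * t with hg
  have h1 : s * g * s⁻¹ = g⁻¹ := by
    rw [hg, ← mul_assoc, hs, one_mul, _root_.mul_inv_rev, inv_eq_of_mul_eq_one_right ht]
  have h2 : ∀ n : ℕ, g ^ n * s * (g ^ n)⁻¹ = g ^ (2 * n) * s := fun n => by
    have : s * (g ^ n)⁻¹ = g ^ n * s := by
      rw [← inv_pow, ← h1, conj_pow, ← mul_assoc, ← mul_assoc, hs, one_mul, hs']
    rw [mul_assoc, this, ← mul_assoc, ← pow_add, two_mul]
  refine ⟨k * (k + 1), ?_⟩
  rw [h2, show 2 * (k * (k + 1)) = (2 * k + 1) * k + k by ring, pow_add, pow_mul g (2 * k + 1), h,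
    one_pow, one_mul, _root_.mul_inv_rev, mul_assoc (g ^ k), hs, mul_one, ← mul_assoc, hs', h2,
    eq_inv_of_mul_eq_one_left (show g ^ (2 * k) * g = 1 by rw [← pow_succ, h]), hg,
    _root_.mul_inv_rev,
    inv_mul_cancel_right, inv_eq_of_mul_eq_one_right ht]

theorem exists_swap {P : Subgroup (Sp F)} {u w : V F} (hu : tv u ∈ P) (hw : tv w ∈ P)
    (h : f u w ≠ 0) : ∃ b : F, b ^ 2 * f u w = 1 ∧ tv (b • (u + w)) ∈ P := by
  obtain ⟨k, hk⟩ := odd_order h
  obtain ⟨m, hm⟩ := dih (tv_mul_self u) (tv_mul_self w) (k := k) (by rw [← hk, pow_orderOf_eq_one])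
  have hg := P.pow_mem (P.mul_mem hu hw) m
  have hy := P.mul_mem (P.mul_mem hg hu) (P.inv_mem hg)
  rw [conj_tv] at hy
  rw [conj_tv, conj_tv] at hm
  generalize ac ((tv u * tv w) ^ m) u = y at hy hm
  have h5 := tv_inj hm
  rw [ac_tv] at h5
  have h6 : f u y * f u y = f u w := by rw [← h5]; simp [f_self]
  have h7 : f u y ≠ 0 := fun e => h (by rw [← h6, e, mul_zero])
  refine ⟨(f u y)⁻¹, by grind, ?_⟩
  rwa [← h5, ← add_assoc, add_self, zero_add, inv_smul_smul₀ h7]

theorem exists_sw {P : Subgroup (Sp F)} {u w : V F} (hu : tv u ∈ P) (hw : tv w ∈ P)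
    (h : f u w ≠ 0) : ∃ g ∈ P, ac g u = w ∧ ac g w = u ∧
      ∀ x, ac g x = x + ((f x u + f x w) / f u w) • (u + w) := by
  obtain ⟨b, hb, h1⟩ := exists_swap hu hw h
  have h2 : ∀ x, ac (tv (b • (u + w))) x = x + ((f x u + f x w) / f u w) • (u + w) := fun x => by
    simp only [ac_tv, map_smul, map_add, smul_eq_mul]
    match_scalars <;> grind
  refine ⟨_, h1, ?_, ?_, h2⟩
  · rw [h2, f_self]; match_scalars <;> grind
  · rw [h2, f_self, f_comm w]; match_scalars <;> grind

theorem exists_sqrt (a : F) : ∃ b : F, b ^ 2 = a :=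
  (frobeniusEquiv F 2).surjective a

end Cfsg.Lib.Sp4E
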