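import Cfsg.Agent.Lib.Sp4E.NR

/-!
# Involution centralisers are `2`-groups
-/

set_option autoImplicit false

namespace Cfsg.Lib.Sp4E

open Matrix Cfsg.Lib.Symp

variable {F : Type*} [Field F] [CharP F 2] {P : Subgroup (Sp F)} {g k : Sp F} {p b r s : V F}

theorem f_inv (hg : g * g = 1) (x y : V F) : f (ac g x) y = f x (ac g y) := by
  rw [f_ac_left, inv_eq_of_mul_eq_one_right hg]

theorem alt (hg : g * g = 1) (ha : ∀ x, f (ac g x) x = 0) (h : f (ac g r + r) s = 1) :
    Fr (ac g s + s) (ac g r + r) r (s + f r s • (ac g s + s)) ∧ ∀ y,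
      ac g y = y + f y (ac g s + s) • (ac g r + r) + f y (ac g r + r) • (ac g s + s) := by
  have e1 : ∀ x y, f (ac g x + x) y = f x (ac g y + y) := fun x y => by simp [f_inv hg]
  have e2 : ∀ x y, f (ac g x + x) (ac g y + y) = 0 := fun x y => by
    rw [e1, map_add (ac g), ← ac_mul, hg, ac_one, add_comm y, add_self, map_zero]
  have e3 : ∀ x, f (ac g x + x) x = 0 := fun x => by simp [ha, f_self]
  have e4 : f (ac g s + s) r = 1 := by rw [e1, f_comm, h]
  have H : Fr (ac g s + s) (ac g r + r) r (s + f r s • (ac g s + s)) :=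
    ⟨e2 _ _, e4, by rw [map_add, map_smul, e2, e3]; simp, e3 _, by rw [map_add, map_smul, e2, h]; simp,
      by rw [map_add, map_smul, f_comm r (_ + _), e4, smul_eq_mul]; grind⟩
  refine ⟨H, fun y => eq_of_add ?_⟩
  rw [← add_assoc, ← add_assoc]
  have e5 := e1 y r
  have e6 := e1 y s
  have e7 := e2 y r
  have e8 := e2 y s
  have e9 := e3 s
  have e10 := e3 r
  have e11 := e2 r s
  have e12 := e2 s r
  generalize ac g s + s = a at *
  generalize ac g r + r = b at *
  generalize ac g y + y = c at *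
  refine H.eq_zero ?_ ?_ ?_ ?_ <;> simp [f_self, *] <;> grind

variable [Finite F]

theorem exists_sq {R : V F → F} (h1 : ∀ x y, R (x + y) = R x + R y)
    (h2 : ∀ (c : F) x, R (c • x) = c ^ 2 * R x) : ∃ p, ∀ x, R x = f x p ^ 2 := by
  let σ := frobeniusEquiv F 2
  let ψ : V F →ₗ[F] F :=
    { toFun := fun x => σ.symm (R x)
      map_add' := fun x y => by rw [h1, map_add]
      map_smul' := fun c x => σ.injective (by
        rw [σ.apply_symm_apply, RingHom.id_apply, smul_eq_mul, map_mul, σ.apply_symm_apply, h2]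
        rfl) }
  refine ⟨((bil (Fin 2) F).toDual (bil_nondegenerate _ _)).symm ψ, fun x => ?_⟩
  rw [f_comm x, LinearMap.BilinForm.apply_toDual_symm_apply]
  exact (σ.apply_symm_apply _).symm

theorem exists_p (hg : g * g = 1) : ∃ p, ∀ x, f (ac g x) x = f x p ^ 2 :=
  exists_sq (fun x y => by simp [f_inv hg x y, f_comm (ac g y)]; grind) fun c x => by simp; ring

theorem Hy.isog (h : Hy P) : Hy (P.map isog) where
  simple := have := h.simple; (P.equivMapOfInjective _ isog_bijective.1).symm.isSimpleGroup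
  nab := fun e => h.nab ⟨⟨fun a b => (P.equivMapOfInjective _ isog_bijective.1).injective (by
    rw [map_mul, map_mul, e.is_comm.comm])⟩⟩
  cen := fun c hc => by
    obtain ⟨c, rfl⟩ := isog_bijective.2 c
    rw [h.cen c fun g hg => isog_bijective.1 (by rw [map_mul, map_mul, hc _ ⟨g, hg, rfl⟩]), map_one]
  sub := fun k c hc => by
    obtain ⟨c, rfl⟩ := isog_bijective.2 c
    refine h.sub k c fun g hg i j => ?_
    have h1 := hc _ ⟨g, hg, rfl⟩
    rw [← map_inv, ← map_mul, ← map_mul] at h1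
    have h2 : (Symp.isog (Symp.isog (c⁻¹ * g * c))).1 i j ∈ k :=
      add_mem (mul_mem (h1 _ _) (h1 _ _)) (mul_mem (h1 _ _) (h1 _ _))
    rw [isog_isog, fieldSp_coe, map_apply] at h2
    obtain ⟨y, hy⟩ := exists_sqrt (F := k) ⟨_, h2⟩
    rw [← (frobeniusEquiv F 2).injective (congrArg Subtype.val hy)]
    exact y.2
  ne := fun e => h.ne (Subgroup.map_injective isog_bijective.1 (by
    rw [e, Subgroup.map_top_of_surjective _ isog_bijective.2]))
  big := h.big

theorem Hy.no_sg (h : Hy P) (hg : g ∈ P) (H : Fr p b r s)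
    (e : ∀ y, ac g y = y + f y p • b + f y b • p) : False := by
  obtain ⟨c, hc⟩ := H.exists_sp
  have h1 : g = c * Symp.isog (tv (Pi.single (.inl 0) 1)) * c⁻¹ := by
    rw [tv, isog_tvSp, conj_sgSp]
    refine ext' fun y => ?_
    rw [e, ac_def (sgSp _ _ _ _), sgSp_mulVec, ← ac_def, ← ac_def, hc, hc]
    simp
  have h2 : Symp.isog g ∈ P.map Symp.isog := ⟨g, hg, rfl⟩
  rw [h1, map_mul, map_mul, isog_isog, tv, fieldSp_tvSp, map_one, map_inv] at h2
  refine ac_ne (fun e => ?_) (h.isog.no_tv (conj_tv (Symp.isog c) _ ▸ h2))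
  simpa using congrFun e (.inl 0)

omit [Finite F] in
theorem exists_im (hg : g * g = 1) (ha : ∀ x, f (ac g x) x = 0) (h : f (ac g r + r) s = 1)
    (hp : ac g p = p) : ∃ s', ac g s' + s' = p := by
  obtain ⟨H, e⟩ := alt hg ha h
  have h2 := e p
  rw [hp, add_assoc, left_eq_add] at h2
  have h3 := congrArg (f · r) h2
  have h4 := congrArg (f · (s + f r s • (ac g s + s))) h2
  simp only [LinearMap.map_add₂ _ (_ • _), LinearMap.map_smul₂, H.br, H.ar, H.bs, H.as, smul_eq_mul,
    map_zero, LinearMap.zero_apply, mul_zero, mul_one, zero_add, add_zero] at h3 h4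
  refine ⟨f p r • s + f p (s + f r s • (ac g s + s)) • r, eq_of_add ?_⟩
  rw [map_add (ac g), map_smul, map_smul, add_add_add_comm, ← smul_add, ← smul_add]
  generalize s + f r s • (ac g s + s) = t at *
  generalize ac g s + s = a at *
  generalize ac g r + r = b at *
  refine H.eq_zero ?_ ?_ ?_ ?_ <;> simp [H.br, H.ar, H.bs, H.as, H.ab, f_self, h3, h4, f_comm b a,
    CharTwo.add_self_eq_zero]

omit [Finite F] in
theorem pow_four' (H : Fr p b r s) (e : ∀ y, ac g y = y + f y p • b + f y b • p)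
    (h2 : k * g = g * k) (k1 : ac k p = p) : k ^ 4 = 1 := by
  have k2 : ∃ l : F, ac k b = b + l • p := by
    have h3 := congrArg (ac k) (e (ac k⁻¹ r))
    rw [← ac_mul, ← ac_mul, h2, mul_inv_cancel_right, e] at h3
    simp only [ac_ac_inv, map_add, map_smul, f_ac_left, inv_inv, k1, f_comm r p, H.ar, one_smul] at h3
    refine ⟨f r b + f r (ac k b), eq_of_add ?_⟩
    rw [← add_self (r + b + f r b • p)]
    nth_rewrite 2 [h3]
    match_scalars <;> grind
  obtain ⟨l, k2⟩ := k2
  have k3 : ac (k * k) p = p := by rw [ac_mul, k1, k1]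
  have k4 : ac (k * k) b = b := by
    rw [ac_mul, k2, map_add, k2, map_smul, k1, add_assoc, add_self, add_zero]
  rw [show k ^ 4 = k * k * (k * k) by simp [pow_succ, mul_assoc]]
  generalize k * k = k at *
  refine ext' fun y => ?_
  have hb : ∀ c : F, b ≠ c • p := fun c e => by simpa [e, H.as] using H.bs
  obtain ⟨c, d, e⟩ := perp_line (x := ac k y + y) (fun e => by simpa [e] using H.ar) hb H.ab
    (by simp [f_ac_left, ac_inv_of k3, CharTwo.add_self_eq_zero])
    (by simp [f_ac_left, ac_inv_of k4, CharTwo.add_self_eq_zero])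
  have := congrArg (ac k) e
  rw [map_add, map_add, map_smul, map_smul, k3, k4, ← e, add_comm _ y, add_left_inj] at this
  rw [ac_mul, this, ac_one]

theorem Hy.pow_four (h : Hy P) (hP : g ∈ P) (hg : g * g = 1) (h1 : g ≠ 1) (hk : k * g = g * k) :
    k ^ 4 = 1 := by
  obtain ⟨p, hp⟩ := exists_p hg
  have fix : ∀ k : Sp F, k * g = g * k → ac k⁻¹ p = p := fun k hk => eq_of_add (nd fun y => by
    have := hp (ac k y)
    rw [← ac_mul, ← hk, ac_mul, f_ac, hp, f_ac_left] at this
    rw [map_add]; clear hp; grind)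
  have fix' : ∀ k : Sp F, k * g = g * k → ac k p = p := fun k hk => inv_inv k ▸ ac_inv_of (fix k hk)
  have a1 : g * tv p * (g * tv p) = 1 := by
    rw [mul_assoc, ← mul_assoc (tv p), ← comm_of_fix (fix' g rfl), mul_assoc, tv_mul_self,
      mul_one, hg]
  have a2 : ∀ x, f (ac (g * tv p) x) x = 0 := fun x => by
    simp [ac_mul, ac_tv, hp, fix' g rfl, f_comm p x, sq, CharTwo.add_self_eq_zero]
  have a3 : g * tv p ≠ 1 := fun e => by
    rw [mul_eq_one_iff_eq_inv, tv_inv] at e
    exact h1 (by rw [e, h.no_tv (u := p) (e ▸ hP), tv_zero])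
  obtain ⟨r, hr⟩ := not_forall.1 (mt ext' a3)
  obtain ⟨s, hs⟩ := exists_one (x := ac (g * tv p) r + r) fun e => hr (by rw [eq_of_add e, ac_one])
  rw [f_comm] at hs
  by_cases h0 : p = 0
  · obtain ⟨H, e⟩ := alt a1 a2 hs
    exact (h.no_sg hP H (by rwa [h0, tv_zero, mul_one] at e ⊢)).elim
  obtain ⟨s', e'⟩ := exists_im a1 a2 hs (p := p) (by simp [ac_mul, ac_tv, f_self, fix' g rfl])
  obtain ⟨r', hr'⟩ := exists_one h0
  obtain ⟨H', e⟩ := alt a1 a2 (r := r') (s := s') (by
    rw [LinearMap.map_add₂, f_inv a1, ← map_add, e', hr'])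
  rw [e'] at H' e
  exact pow_four' H' e (by rw [← mul_assoc, hk, mul_assoc, comm_of_fix (fix' k hk), mul_assoc])
    (fix' k hk)

theorem Hy.cit (h : Hy P) (t : P) (ht : orderOf t = 2) : IsPGroup 2 (Subgroup.centralizer {t}) :=
  fun k => ⟨2, Subtype.ext (Subtype.ext (h.pow_four t.2
    (congrArg Subtype.val (show t * t = 1 by rw [← sq]; exact orderOf_dvd_iff_pow_eq_one.1 ht.dvd))
    (fun e => by simp [show t = 1 from Subtype.ext e] at ht)
    (congrArg Subtype.val (Subgroup.mem_centralizer_singleton_iff.1 k.2))))⟩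

end Cfsg.Lib.Sp4E
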