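import Cfsg.Agent.Lib.Sp4E.Tv
import Cfsg.Agent.Lib.ZStar.Main
import Cfsg.Agent.Lib.Transfer.Fusion
import Cfsg.Agent.Lib.Transfer.Criteria
import Cfsg.Agent.Lib.Inv.Basic

/-!
# Simple subgroups of `Sp₄(2ⁿ)` contain no transvection
-/

set_option autoImplicit false

namespace Cfsg.Lib.Sp4E

open Matrix Cfsg.Lib.Symp

variable {F : Type*} [Field F] [CharP F 2] {P : Subgroup (Sp F)} {u v w x y z z' : V F} {c c' : F}

/-- Elements of the unipotent radical of the stabiliser of `x` lying in `P`. -/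
def A (P : Subgroup (Sp F)) (x z : V F) (c : F) : Prop :=
  f z x = 0 ∧ ∃ g ∈ P, ∀ y, ac g y = y + f y z • x + f y x • z + (c * f y x) • x

theorem A.add (h : A P x z c) (h' : A P x z' c') : A P x (z + z') (c + c' + f z z') := by
  obtain ⟨h1, g, hg, e⟩ := h
  obtain ⟨h2, g', hg', e'⟩ := h'
  refine ⟨by simp [h1, h2], g * g', P.mul_mem hg hg', fun y => ?_⟩
  simp only [ac_mul, e, e', map_add, map_smul, LinearMap.add_apply, LinearMap.smul_apply, f_self,
    smul_eq_mul, h2, f_comm x z, h1, f_comm z' z]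
  match_scalars <;> grind

theorem A.conj (h : A P x z c) {g : Sp F} (hg : g ∈ P) (hx : ac g x = x) : A P x (ac g z) c := by
  obtain ⟨h1, k, hk, e⟩ := h
  refine ⟨by rw [← hx, f_ac, h1], g * k * g⁻¹, P.mul_mem (P.mul_mem hg hk) (P.inv_mem hg),
    fun y => ?_⟩
  simp only [ac_mul, e, map_add, map_smul, ac_ac_inv, f_ac_left, inv_inv, hx]

theorem A.shift (h : A P x (z + c' • x) c) : A P x z c := by
  obtain ⟨h1, k, hk, e⟩ := h
  refine ⟨by simpa [f_self] using h1, k, hk, fun y => ?_⟩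
  simp only [e, map_add, map_smul, smul_eq_mul]
  match_scalars <;> grind

theorem A.tv (h : A P x 0 (c ^ 2)) : tv (c • x) ∈ P := by
  obtain ⟨-, k, hk, e⟩ := h
  convert hk using 1
  refine ext' fun y => ?_
  simp only [e, ac_tv, map_smul, smul_eq_mul, map_zero]
  match_scalars <;> grind

theorem A.step (h : A P x z c) (hy : Sp4E.tv y ∈ P) (hx : f x y = 0) :
    A P x (f z y • y) (f z y ^ 2) := by
  have := h.add (h.conj hy (by rw [ac_tv, hx, zero_smul, add_zero]))
  rw [ac_tv, ← add_assoc, add_self, zero_add] at this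
  convert this using 1
  simp [f_self]; grind

theorem A.of {m l : F} (hu : Sp4E.tv u ∈ P) (hv : Sp4E.tv (m • u + x) ∈ P)
    (hy : Sp4E.tv ((1 + m) • u + l • x) ∈ P) (hxu : f x u = 0) :
    A P x (((1 + m) * l + m) • u) ((l + 1) ^ 2) := by
  have hux : f u x = 0 := by rw [f_comm, hxu]
  refine ⟨by simp [hux], _, P.mul_mem hy (P.mul_mem hu hv), fun y => ?_⟩
  simp only [ac_mul, ac_tv, map_add, map_smul, LinearMap.add_apply, LinearMap.smul_apply, f_self,
    smul_eq_mul, hux, hxu]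
  match_scalars <;> grind

theorem A.two {m s : F} (hu : Sp4E.tv u ∈ P) (hv : Sp4E.tv (m • u + x) ∈ P) (hw : Sp4E.tv w ∈ P)
    (hxu : f x u = 0) (hxw : f x w = 0) (hs : A P x (s • u) c) :
    A P x ((f u w ^ 2 * s) • u) ((f u w ^ 2 * s) ^ 2) ∧
      A P x ((f u w ^ 2 * m ^ 2 * s) • u) ((f u w ^ 2 * m * s) ^ 2) := by
  have a1 := hs.step hw hxw
  have a2 := a1.step hu hxu
  have a3 := a1.step hv (by simp [hxu, f_self])
  simp only [map_add, map_smul, LinearMap.smul_apply, smul_eq_mul, f_comm w, hxw, smul_add,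
    smul_smul] at a2 a3
  exact ⟨by convert a2 using 2 <;> ring, by convert a3.shift using 2 <;> ring⟩

theorem A.three {m s : F} (hu : Sp4E.tv u ∈ P) (hv : Sp4E.tv (m • u + x) ∈ P) (hw : Sp4E.tv w ∈ P)
    (hxu : f x u = 0) (hxw : f x w = 0) (hs : A P x (s • u) c) :
    Sp4E.tv ((f u w ^ 4 * m * (1 + m) * s) • x) ∈ P := by
  have := ((hs.two hu hv hw hxu hxw).2.two hu hv hw hxu hxw).1.add
    ((hs.two hu hv hw hxu hxw).1.two hu hv hw hxu hxw).2
  rw [show f u w ^ 2 * m ^ 2 * (f u w ^ 2 * s) = f u w ^ 2 * (f u w ^ 2 * m ^ 2 * s) by ring,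
    add_self] at this
  refine A.tv ?_
  convert this using 1
  simp [f_self]; grind

variable [Finite F]

theorem exists_y {m : F} (hu : tv u ∈ P) (hv : tv (m • u + x) ∈ P) (hw : tv w ∈ P) (h2 : 1 + m ≠ 0)
    (hxu : f x u = 0) (hxw : f x w = 0) (huw : f u w ≠ 0) :
    ∃ l : F, tv ((1 + m) • u + l • x) ∈ P := by
  let K : Subgroup (Sp F) :=
    { carrier := {g | ac g x = x ∧ ∃ p ∈ P, ac p x = x ∧ ∀ z, f z x = 0 →
        ∃ c : F, ac p z = ac g z + c • x}
      one_mem' := ⟨ac_one _, 1, P.one_mem, ac_one _, fun z _ => ⟨0, by simp⟩⟩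
      mul_mem' := fun {g g'} ⟨a, p, hp, b, e⟩ ⟨a', p', hp', b', e'⟩ =>
        ⟨by rw [ac_mul, a', a], p * p', P.mul_mem hp hp', by rw [ac_mul, b', b], fun z hz => by
          obtain ⟨c', e1⟩ := e' z hz
          obtain ⟨c, e2⟩ := e (ac g' z) (by rw [← a', f_ac, hz])
          exact ⟨c + c', by rw [ac_mul, e1, map_add, e2, map_smul, b, ac_mul, add_smul, add_assoc]⟩⟩
      inv_mem' := fun {g} ⟨a, p, hp, b, e⟩ =>
        ⟨ac_inv_of a, p⁻¹, P.inv_mem hp, ac_inv_of b, fun z hz => by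
          obtain ⟨c, e1⟩ := e (ac g⁻¹ z) (by rw [f_ac_left, inv_inv, a, hz])
          exact ⟨c, ac_inv_of (by
            rw [map_add, e1, ac_ac_inv, map_smul, b, add_assoc, add_self, add_zero])⟩⟩ }
  have k1 : tv w ∈ K := ⟨by simp [ac_tv, hxw], _, hw, by simp [ac_tv, hxw], fun z _ => ⟨0, by simp⟩⟩
  have k2 : tv ((1 + m) • u) ∈ K := ⟨by simp [ac_tv, hxu], _, P.mul_mem hu hv,
    by simp [ac_mul, ac_tv, hxu, f_self], fun z hz => ⟨m * f z u, by
      simp only [ac_mul, ac_tv, map_add, map_smul, LinearMap.add_apply, LinearMap.smul_apply, f_self,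
        smul_eq_mul, hz, hxu]
      match_scalars <;> grind⟩⟩
  obtain ⟨g, ⟨-, p, hp, -, e⟩, -, e1, -⟩ := exists_sw k2 k1 (by simp [h2, huw])
  obtain ⟨l, e2⟩ := e w (by rw [f_comm, hxw])
  exact ⟨l, by rw [← e1, ← e2]; exact tv_ac hp hw⟩

theorem Hy.e1' (h : Hy P) (hu : D P u) (hw : D P w) {m : F} (hv : tv (m • u + x) ∈ P) (h0 : m ≠ 0)
    (h1 : m ≠ 1) (hx : x ≠ 0) (hxu : f x u = 0) (hxw : f x w = 0) (huw : f u w ≠ 0) :
    tv ((1 + m)⁻¹ • x) ∈ P := by
  have h2 : 1 + m ≠ 0 := by grind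
  obtain ⟨l, hy⟩ := exists_y hu.2 hv hw.2 h2 hxu hxw huw
  have H := A.of hu.2 hv hy hxu
  by_cases h3 : (1 + m) * l + m = 0
  · rw [h3, zero_smul] at H
    rw [show (1 + m)⁻¹ = l + 1 by grind]
    exact H.tv
  have a1 := (H.two hu.2 hv hw.2 hxu hxw).1.three hu.2 hv hw.2 hxu hxw
  have a2 := (H.two hu.2 hv hw.2 hxu hxw).2.three hu.2 hv hw.2 hxu hxw
  have := h.nr ⟨smul_ne_zero (by simp [*]) hx, a1⟩ (m := m ^ 2) (by simp [h0])
    (by rw [smul_smul]; convert a2 using 3; ring)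
  grind

theorem Hy.li (h : Hy P) (hu : D P u) (hv : D P v) (hne : u ≠ v) (c : F) : v ≠ c • u := fun e => by
  have h0 : c ≠ 0 := by rintro rfl; exact hv.1 (by simpa using e)
  rw [h.nr hu h0 (e ▸ hv.2), one_smul] at e
  exact hne e.symm

theorem Hy.li' (h : Hy P) (hu : D P u) (hv : D P v) (hne : u ≠ v) {a b a' b' : F}
    (e : a • u + b • v = a' • u + b' • v) : a = a' ∧ b = b' := by
  have h1 : b = b' := by
    by_contra h1
    refine h.li hu hv hne ((a + a') / (b + b')) (smul_right_injective _ (r := b + b') (by grind) ?_)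
    have : (b + b') • v = (a • u + b • v) + (a' • u + b' • v) + (a + a') • u := by
      match_scalars <;> grind
    simp only [this, e, add_self]
    match_scalars; grind
  rw [h1, add_left_inj] at e
  exact ⟨smul_cancel hu.1 e, h1⟩

theorem Hy.e1 (h : Hy P) (hu : D P u) (hv : D P v) (hw : D P w) (huv : f u v = 0) (ha : f u w ≠ 0)
    (hb : f v w ≠ 0) (hab : f u w ≠ f v w) :
    D P ((f v w / (f u w + f v w)) • u + (f u w / (f u w + f v w)) • v) := by
  have hne : u ≠ v := by rintro rfl; exact hab rfl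
  have h1 : (f v w / f u w) • u + v ≠ 0 := fun e => h.li hu hv hne _ (eq_of_add e).symm
  have := h.e1' hu hw (m := f v w / f u w) (x := (f v w / f u w) • u + v)
    (by rw [← add_assoc, add_self, zero_add]; exact hv.2) (by grind) (by grind) h1
    (by simp [f_self, f_comm v, huv]) (by simp; grind) ha
  have e : (f v w / (f u w + f v w)) • u + (f u w / (f u w + f v w)) • v =
      (1 + f v w / f u w)⁻¹ • ((f v w / f u w) • u + v) := by match_scalars <;> grind
  exact e ▸ ⟨smul_ne_zero (by grind) h1, this⟩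

theorem Hy.lA (h : Hy P) (hu : D P u) (hv : D P v) (hne : u ≠ v) (huv : f u v = 0) {a b : F}
    (hy : D P (a • u + b • v)) : a + b = 1 ∨ a = b := by
  obtain ⟨w, hw, ha, hb⟩ := h.cn hu hv.1
  have U : ∀ p q p' q' : F, D P (p • u + q • v) → D P (p' • u + q' • v) →
      p * f u w + q * f v w = 0 → p' * f u w + q' * f v w = 0 → q = q' := fun p q p' q' d d' e e' => by
    have h0 : q ≠ 0 := fun e0 => d.1 (by rw [show p = 0 by grind, e0]; simp)
    have h0' : q' ≠ 0 := fun e0 => d'.1 (by rw [show p' = 0 by grind, e0]; simp)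
    have := h.nr d (m := q' / q) (by grind) (by convert d'.2 using 2; match_scalars <;> grind)
    grind
  have hc : f (a • u + b • v) w = a * f u w + b * f v w := by simp
  have X1 := fun e1 e2 => U _ _ _ _ (h.e1 hu hv hw huv ha hb e1) hy (by grind) e2
  have X2 := fun e1 e2 => h.e1 hu hy hw (by simp [f_self, huv]) ha e1 e2
  have X3 := fun e1 e2 => h.e1 hv hy hw (by simp [f_self, f_comm v, huv]) hb e1 e2
  rw [hc, smul_add, smul_smul, smul_smul, ← add_assoc, ← add_smul] at X2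
  rw [hc, smul_add, smul_smul, smul_smul, add_left_comm, ← add_smul] at X3
  by_cases e0 : a * f u w + b * f v w = 0
  · by_cases e : f u w = f v w
    · right; grind
    · left; have := X1 e e0; grind
  by_cases e : f u w = f v w
  · by_cases e1 : f u w = a * f u w + b * f v w
    · left; grind
    have := U _ _ _ _ (X2 e0 e1) (X3 e0 (e ▸ e1)) (by grind) (by grind)
    grind
  left
  by_cases e1 : f u w = a * f u w + b * f v w
  · have := U _ _ _ _ (h.e1 hu hv hw huv ha hb e) (X3 e0 (by grind)) (by grind) (by grind)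
    grind
  · have := U _ _ _ _ (h.e1 hu hv hw huv ha hb e) (X2 e0 e1) (by grind) (by grind)
    grind

theorem Hy.lB (h : Hy P) (hu : D P u) (hv : D P v) (hne : u ≠ v) (huv : f u v = 0) {a b : F}
    (hy : D P (a • u + b • v)) : a + b = 1 ∨ a = 1 ∧ b = 1 := by
  refine (h.lA hu hv hne huv hy).imp_right ?_
  rintro rfl
  have h0 : a ≠ 0 := fun e => hy.1 (by simp [e])
  have h1 : u ≠ a • u + a • v := fun e => h0 (h.li' hu hv hne (a := 1) (b := 0) (by simpa using e)).2.symm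
  have := h.lA hu hy h1 (by simp [f_self, huv]) (a := 1) (b := a⁻¹)
    (by convert hv using 1; match_scalars <;> grind)
  grind

theorem Hy.lC (h : Hy P) (hu : D P u) (hv : D P v) (hn : D P (u + v)) (huv : f u v = 0)
    (hw : D P w) (ha : f u w ≠ 0) (hb : f v w ≠ 0) : f u w = f v w := by
  by_contra hab
  have := h.lB hu hn (by simpa using hv.1) (by simp [f_self, huv]) (a := 1)
    (b := f u w / (f u w + f v w)) (by
      convert h.e1 hu hv hw huv ha hb hab using 1; match_scalars <;> grind)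
  grind

theorem Hy.lD (h : Hy P) (hu : D P u) (hv : D P v) (hn : D P (u + v)) (huv : f u v = 0)
    (hw : D P w) (ha : f u w ≠ 0) : f u w = 1 := by
  wlog hb : f v w = 0 generalizing v
  · exact this hn (by rwa [← add_assoc, add_self, zero_add]) (by simp [f_self, huv])
      (by simp [h.lC hu hv hn huv hw ha hb, CharTwo.add_self_eq_zero])
  obtain ⟨g, hg, e1, -, e2⟩ := exists_sw hu.2 hw.2 ha
  have h1 := hn.ac hg
  rw [map_add, e1, e2, f_comm v u, huv, hb, add_zero, zero_div, zero_smul, add_zero] at h1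
  have h2 := h1.ac hu.2
  have h3 := hw.ac hu.2
  rw [map_add, ac_tv u v, f_comm v, huv, zero_smul, add_zero] at h2
  obtain ⟨y, hy, a1, a2⟩ := h.cn hu hv.1
  have c1 := h.lC hu hv hn huv hy a1 a2
  have c2 := fun e => h.lC hw hv h1 (by rw [f_comm, hb]) hy e a2
  have c3 := fun e => h.lC h3 hv h2 (by simp [ac_tv, f_comm w, hb, huv]) hy e a2
  simp only [ac_tv, map_add, map_smul, LinearMap.add_apply, LinearMap.smul_apply, smul_eq_mul,
    f_comm w u] at c3
  clear e2
  by_cases p : f w y = 0 <;> by_cases q : f w y + f u w * f u y = 0 <;> grind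

theorem Hy.lE (h : Hy P) (hu : D P u) (hv : D P v) (hne : u ≠ v) (huv : f u v = 0) {a b : F}
    (hy : D P (a • u + b • v)) : a + b = 1 := by
  refine (h.lB hu hv hne huv hy).resolve_right ?_
  rintro ⟨rfl, rfl⟩
  rw [one_smul, one_smul] at hy
  let k : Subfield F :=
    { carrier := {x | x = 0 ∨ x = 1}
      mul_mem' := by rintro _ _ (rfl | rfl) (rfl | rfl) <;> simp
      one_mem' := .inr rfl
      add_mem' := by rintro _ _ (rfl | rfl) (rfl | rfl) <;> simp [CharTwo.add_self_eq_zero]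
      zero_mem' := .inl rfl
      neg_mem' := by rintro _ (rfl | rfl) <;> simp [CharTwo.neg_eq]
      inv_mem' := by rintro _ (rfl | rfl) <;> simp }
  obtain ⟨m, h0, h1⟩ := h.big
  have : k = ⊤ := h.sub_top hu fun x y hx hy' => by
    obtain ⟨g, hg, rfl⟩ := h.trans hu hx
    exact or_iff_not_imp_left.2 (h.lD (hu.ac hg) (hv.ac hg) (map_add (ac g) u v ▸ hy.ac hg)
      (by rw [f_ac, huv]) hy')
  exact (this.ge (Subfield.mem_top m)).elim h0 h1

theorem exists_conj_comm {G : Type*} [Group G] [Finite G] [IsSimpleGroup G]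
    (hG : ¬ IsMulCommutative G) {t : G} (ht : orderOf t = 2) :
    ∃ g, g * t * g⁻¹ * t = t * (g * t * g⁻¹) ∧ g * t * g⁻¹ ≠ t := by
  by_contra! hw
  rcases (inferInstance : (oddCore G).Normal).eq_bot_or_eq_top with e | e
  · rcases (inferInstance : (Subgroup.center G).Normal).eq_bot_or_eq_top with k | k
    · have : t = 1 := Subgroup.mem_bot.1 (k.le (Subgroup.mem_center_iff.2 fun g => by
        have := ZStar.zstar ⟨ht, fun g h => hw g h.symm⟩ g
        rwa [e, Subgroup.mem_bot, mul_inv_eq_one, mul_inv_eq_iff_eq_mul, eq_comm] at this))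
      simp [this] at ht
    · exact hG ⟨⟨fun a b => Subgroup.mem_center_iff.1 (k.ge trivial) a⟩⟩
  · exact absurd (Core.odd_card_oddCore G) (Nat.not_odd_iff_even.2 (even_iff_two_dvd.2
      (ht ▸ Subgroup.orderOf_dvd_natCard _ (e.ge trivial))))

theorem Hy.no_tv (h : Hy P) (hu : tv u ∈ P) : u = 0 := by
  by_contra h0
  have := h.simple
  have o : ∀ {u} (hu : tv u ∈ P), (⟨tv u, hu⟩ : P) * ⟨tv u, hu⟩ = 1 := fun _ =>
    Subtype.ext (tv_mul_self _)
  obtain ⟨g, e1, e2⟩ := exists_conj_comm h.nab (t := ⟨tv u, hu⟩) (orderOf_eq_prime (by rw [sq, o])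
    fun e => h0 (tv_eq_one (congrArg Subtype.val e)))
  obtain ⟨S⟩ : Nonempty (Sylow 2 P) := inferInstance
  obtain ⟨k, m1, m2⟩ := Inv.exists_conj_pair_mem_sylow S (by rw [conj_mul, o]; simp) (o hu) e1
  have cj : ∀ (g : P) {u} (hu : tv u ∈ P), g * ⟨tv u, hu⟩ * g⁻¹ = ⟨tv (ac g u), tv_ac g.2 hu⟩ :=
    fun g u hu => Subtype.ext (conj_tv _ _)
  rw [cj, cj] at m1
  rw [cj] at m2 e2
  obtain ⟨a, b, d1, d2, hne, m1, m2⟩ : ∃ (a b : V F) (d1 : D P a) (d2 : D P b), a ≠ b ∧
      ⟨_, d1.2⟩ ∈ (S : Subgroup P) ∧ ⟨_, d2.2⟩ ∈ (S : Subgroup P) :=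
    ⟨_, _, (D.ac ⟨h0, hu⟩ g.2).ac k.2, D.ac ⟨h0, hu⟩ k.2, fun e => e2 (Subtype.ext (congrArg tv (by
      rw [← ac_inv_ac k.1 (ac _ _), e, ac_inv_ac]))), m1, m2⟩
  have perp : ∀ {x y} (hx : tv x ∈ P) (hy : tv y ∈ P), ⟨_, hx⟩ ∈ (S : Subgroup P) →
      ⟨_, hy⟩ ∈ (S : Subgroup P) → f x y = 0 := fun {x y} hx hy p q => by
    by_contra e
    obtain ⟨n, hn⟩ := S.2 ⟨_, S.1.mul_mem p q⟩
    have h1 : (tv x * tv y) ^ 2 ^ n = 1 := congrArg (·.1.1) hn
    have h2 := (Nat.Coprime.pow_right n (Nat.coprime_two_right.2 (odd_order e))).eq_one_of_dvd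
      (orderOf_dvd_of_pow_eq_one h1)
    rw [orderOf_eq_one_iff, mul_eq_one_iff_eq_inv, tv_inv] at h2
    exact e (by rw [tv_inj h2, f_self])
  have hab := perp _ _ m1 m2
  obtain ⟨r, s, H⟩ := exists_fr d1.1 (h.li d1 d2 hne) hab
  have one : ∀ {x} (hx : D P x), ⟨_, hx.2⟩ ∈ (S : Subgroup P) → f x (r + s) = 1 := fun {x} hx p => by
    obtain ⟨c, d, rfl⟩ := perp_line d1.1 (h.li d1 d2 hne) hab (perp _ _ p m1) (perp _ _ p m2)
    simpa [H.ar, H.as, H.br, H.bs] using h.lE d1 d2 hne hab hx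
  have ln : ∀ g ∈ (S : Subgroup P), ∃ c d : F, ac g.1 (r + s) = r + s + (c • a + d • b) := fun g hg => by
    have : ∀ {x} (hx : D P x), ⟨_, hx.2⟩ ∈ (S : Subgroup P) → f (ac g.1 (r + s) + (r + s)) x = 0 :=
      fun {x} hx p => by
        have := S.1.mul_mem (S.1.mul_mem (S.1.inv_mem hg) p) (S.1.inv_mem (S.1.inv_mem hg))
        rw [cj] at this
        rw [map_add, LinearMap.add_apply, f_ac_left, f_comm, f_comm (r + s), one hx p]
        exact (congrArg (· + 1) (one (hx.ac (g⁻¹).2) this)).trans (CharTwo.add_self_eq_zero _)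
    obtain ⟨c, d, e⟩ := perp_line d1.1 (h.li d1 d2 hne) hab (this d1 m1) (this d2 m2)
    exact ⟨c, d, by rw [← e, add_left_comm, add_self, add_zero]⟩
  have hom : ∀ g ∈ (S : Subgroup P), ∀ g' ∈ (S : Subgroup P), f (ac (g * g').1 (r + s)) (r + s) =
      f (ac g.1 (r + s)) (r + s) + f (ac g'.1 (r + s)) (r + s) := fun g hg g' hg' => by
    obtain ⟨c, d, e⟩ := ln _ (S.1.inv_mem hg)
    obtain ⟨c', d', e'⟩ := ln _ hg'
    rw [Subgroup.coe_mul, ac_mul, f_ac_left g.1, f_ac_left g.1, ← Subgroup.coe_inv, e, e']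
    generalize r + s = t
    simp only [map_add, map_smul, LinearMap.add_apply, LinearMap.smul_apply, f_self, hab,
      f_comm b a, smul_eq_mul]
    ring
  generalize r + s = t at *
  letI := ZMod.algebra F 2
  obtain ⟨l, hl⟩ := Module.Projective.exists_dual_eq_one (ZMod 2) (one_ne_zero (α := F))
  let Q : Subgroup P :=
    { carrier := {g | g ∈ (S : Subgroup P) ∧ l (f (ac g.1 t) t) = 0}
      one_mem' := ⟨S.1.one_mem, by simp [ac_one, f_self]⟩
      mul_mem' := fun p q => ⟨S.1.mul_mem p.1 q.1, by rw [hom _ p.1 _ q.1, map_add, p.2, q.2, add_zero]⟩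
      inv_mem' := fun p => ⟨S.1.inv_mem p.1, by rw [f_ac_left, Subgroup.coe_inv, inv_inv, f_comm, p.2]⟩ }
  have val : ∀ {x} (hx : D P x), ⟨_, hx.2⟩ ∈ (S : Subgroup P) →
      l (f (ac (tv x) t) t) = 1 := fun {x} hx p => by
    rw [ac_tv, map_add, LinearMap.add_apply, f_self, zero_add, f_comm _ x, one hx p, one_smul,
      one hx p, hl]
  obtain ⟨g, hg⟩ := Transfer.exists_conj_mem_of_thompson_transfer
    (Transfer.pResidual_eq_top_of_simple h.nab) S (Q := Q) (Subgroup.relIndex_eq_two_iff.2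
      ⟨_, m1, fun g hg => by
        change Xor (_ ∧ _) (_ ∧ _)
        rw [hom _ hg _ m1, map_add, val d1 m1, and_iff_right hg, and_iff_right (S.1.mul_mem hg m1)]
        generalize l _ = z
        revert z; decide⟩) (u := ⟨_, d1.2⟩) (by rw [sq, o])
  rw [cj] at hg
  exact one_ne_zero ((val (d1.ac g.2) hg.1).symm.trans hg.2)

end Cfsg.Lib.Sp4E
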