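import Cfsg.Agent.Lib.Sp4E.Cit
import Cfsg.Agent.Lib.Hig.Gen

/-!
# Traces, elements of order three
-/

set_option autoImplicit false

namespace Cfsg.Lib.Sp4E

open Matrix Cfsg.Lib.Symp

variable {F : Type*} [Field F] [CharP F 2] {P : Subgroup (Sp F)} {g k y z : Sp F}

theorem tr_sq (A : Matrix (Fin 2 ⊕ Fin 2) (Fin 2 ⊕ Fin 2) F) : (A * A).trace = A.trace ^ 2 := by
  simp [trace, mul_apply, Fintype.sum_sum_type, Fin.sum_univ_two]; grind

theorem tr_pow (g : Sp F) (n : ℕ) : (g ^ 2 ^ n).1.trace = g.1.trace ^ 2 ^ n := by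
  induction n with
  | zero => simp
  | succ n ih => rw [pow_succ, pow_mul, sq, Submonoid.coe_mul, tr_sq, ih, pow_mul]

theorem tr_one : (1 : Sp F).1.trace = 0 := by simp; grind

omit [CharP F 2] in
theorem tr_conj (g k : Sp F) : (k * g * k⁻¹).1.trace = g.1.trace := by
  rw [Submonoid.coe_mul, trace_mul_comm, ← Submonoid.coe_mul, inv_mul_cancel_left]

theorem inv_apply (g : Sp F) (i j) : (g⁻¹).1 i j = g.1 j.swap i.swap := by
  rw [SymplecticGroup.coe_inv]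
  rcases i with i | i <;> rcases j with j | j <;> fin_cases i <;> fin_cases j <;>
    simp [J, mul_apply, Fintype.sum_sum_type, Fin.sum_univ_two, CharTwo.neg_eq, one_apply]

theorem quad (g : Sp F) : (g⁻¹).1.trace = g.1.trace ∧
    (g.1 + (g⁻¹).1) (.inl 0) (.inl 0) + (g.1 + (g⁻¹).1) (.inl 1) (.inl 1) = g.1.trace ∧ ∃ b : F,
    (g.1 + (g⁻¹).1) * (g.1 + (g⁻¹).1) + g.1.trace • (g.1 + (g⁻¹).1) + b • 1 = 0 := by
  have h := inv_apply g
  generalize g⁻¹.1 = B at h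
  generalize g.1 = A at h
  obtain rfl : B = of fun i j => A j.swap i.swap := Matrix.ext h
  refine ⟨?_, ?_, (A (.inl 0) (.inl 0) + A (.inr 0) (.inr 0)) * (A (.inl 1) (.inl 1) + A (.inr 1) (.inr 1)) +
    (A (.inl 0) (.inl 1) + A (.inr 1) (.inr 0)) * (A (.inl 1) (.inl 0) + A (.inr 0) (.inr 1)) +
    (A (.inl 0) (.inr 1) + A (.inl 1) (.inr 0)) * (A (.inr 1) (.inl 0) + A (.inr 0) (.inl 1)), ?_⟩
  · simp [trace, Fintype.sum_sum_type, Fin.sum_univ_two]; ring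
  · simp [trace, Fintype.sum_sum_type, Fin.sum_univ_two]; ring
  · ext (i | i) (j | j) <;> fin_cases i <;> fin_cases j <;>
      simp [trace, mul_apply, Fintype.sum_sum_type, Fin.sum_univ_two, one_apply] <;> grind

theorem add_M (A : Matrix (Fin 2 ⊕ Fin 2) (Fin 2 ⊕ Fin 2) F) : A + A = 0 := by
  ext i j; exact CharTwo.add_self_eq_zero (A i j)

theorem eq_M {A B : Matrix (Fin 2 ⊕ Fin 2) (Fin 2 ⊕ Fin 2) F} (h : A + B = 0) : A = B := by
  rw [← add_zero A, ← add_M B, ← add_assoc, h, zero_add]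

theorem bb_sq (g : Sp F) : (g.1 + g⁻¹.1) * (g.1 + g⁻¹.1) = (g ^ 2).1 + (g ^ 2)⁻¹.1 := by
  simp only [mul_add, add_mul, ← Submonoid.coe_mul, mul_inv_cancel, inv_mul_cancel]
  rw [add_assoc, ← add_assoc (1 : Sp F).1, add_M, zero_add, sq, _root_.mul_inv_rev]

theorem pow_five (h : (g ^ 2).1 + (g ^ 2)⁻¹.1 + (g.1 + g⁻¹.1) + 1 = 0) : g ^ 5 = 1 := by
  have e := congrArg (((g ^ 3).1 + (g ^ 2).1) * ·) h
  simp only [mul_add, add_mul, ← Submonoid.coe_mul, mul_zero, mul_one] at e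
  rw [show g ^ 3 * g ^ 2 = g ^ 5 by group, show g ^ 2 * g ^ 2 = g ^ 4 by group,
    show g ^ 3 * (g ^ 2)⁻¹ = g by group, mul_inv_cancel, show g ^ 3 * g = g ^ 4 by group,
    show g ^ 2 * g = g ^ 3 by group, show g ^ 3 * g⁻¹ = g ^ 2 by group,
    show g ^ 2 * g⁻¹ = g by group] at e
  refine Subtype.ext (eq_M ?_)
  linear_combination (norm := abel) e - add_M (g ^ 4).1 - add_M (g ^ 3).1 - add_M (g ^ 2).1 - add_M g.1

theorem not_conj_sq (h7 : g ^ 7 = 1) (hk : k * g * k⁻¹ = g ^ 2) : g = 1 := by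
  obtain ⟨i1, -, b, e⟩ := quad g
  have t2 : (g ^ 2).1.trace = g.1.trace := by rw [← hk, tr_conj]
  have t1 : g.1.trace ^ 2 = g.1.trace := (tr_pow g 1).symm.trans t2
  have k4 : k * g ^ 2 * k⁻¹ = g ^ 4 := by rw [← conj_pow, hk, ← pow_mul]
  have k8 : k * g ^ 4 * k⁻¹ = g := by
    rw [← conj_pow, hk, ← pow_mul, show 2 * 4 = 7 + 1 by rfl, pow_succ, h7, one_mul]
  have h3 : g ^ 3 = (g ^ 4)⁻¹ := eq_inv_of_mul_eq_one_left (by rw [← pow_add, h7])
  rw [bb_sq] at e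
  by_cases t0 : g.1.trace = 0
  · have cj : ∀ x : Sp F, x.1 + x⁻¹.1 = b • 1 → (k * x * k⁻¹).1 + (k * x * k⁻¹)⁻¹.1 = b • 1 :=
      fun x hx => by
        rw [conj_inv, Submonoid.coe_mul, Submonoid.coe_mul, Submonoid.coe_mul, Submonoid.coe_mul,
          ← add_mul, ← mul_add, hx, mul_smul_comm, mul_one, smul_mul_assoc, ← Submonoid.coe_mul,
          mul_inv_cancel, Submonoid.coe_one]
    rw [t0, zero_smul, add_zero] at e
    have e2 := eq_M e
    have e4 := k4 ▸ cj _ e2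
    have e1 := k8 ▸ cj _ e4
    have e3 : (g.1 + g⁻¹.1) * ((g ^ 2).1 + (g ^ 2)⁻¹.1) = (g ^ 4).1 + (g ^ 4)⁻¹.1 + (g.1 + g⁻¹.1) := by
      simp only [mul_add, add_mul, ← Submonoid.coe_mul]
      rw [show g * g ^ 2 = g ^ 3 by group, show g⁻¹ * g ^ 2 = g by group,
        show g * (g ^ 2)⁻¹ = g⁻¹ by group, show g⁻¹ * (g ^ 2)⁻¹ = (g ^ 3)⁻¹ by group, h3, inv_inv]
      abel
    rw [e1, e2, e4, add_M, smul_mul_smul_comm, mul_one, smul_eq_zero, mul_self_eq_zero] at e3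
    rw [e3.resolve_right one_ne_zero, zero_smul] at e1
    have : g ^ 2 = 1 := by rw [sq]; exact mul_eq_one_iff_eq_inv.2 (Subtype.ext (eq_M e1))
    rwa [show 7 = 2 * 3 + 1 by rfl, pow_succ, pow_mul, this, one_pow, one_mul] at h7
  have e1 := congrArg (fun A => (g.1 * A).trace) e
  simp only [mul_add, mul_smul_comm, trace_add, trace_smul, ← Submonoid.coe_mul, mul_zero, mul_one,
    trace_zero, mul_inv_cancel, tr_one, smul_eq_mul] at e1
  rw [show g * g ^ 2 = g ^ 3 by group, show g * (g ^ 2)⁻¹ = g⁻¹ by group, h3, (quad _).1, ← k4, tr_conj,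
    ← sq, i1, t2] at e1
  have key : ∀ t b : F, t ≠ 0 → t ^ 2 = t → t + t + (t * t + 0) + b * t = 0 → t = 1 ∧ b = 1 :=
    fun t b _ _ _ => by grind
  obtain ⟨t3, rfl⟩ := key _ b t0 t1 e1
  rw [t3, one_smul, one_smul] at e
  have := pow_five e
  rw [show 7 = 5 + 2 by rfl, pow_add, this, one_mul] at h7
  rwa [show 5 = 2 * 2 + 1 by rfl, pow_succ, pow_mul, h7, one_pow, one_mul] at this

/-- No non-zero fixed vector. -/
def Fpf (g : Sp F) : Prop := ∀ x, ac g x = x → x = 0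

omit [CharP F 2] in
theorem Fpf.conj (h : Fpf g) (k : Sp F) : Fpf (k * g * k⁻¹) := fun x hx => by
  rw [ac_mul, ac_mul] at hx
  rw [← ac_ac_inv k x, h _ (ac_inv_of hx).symm, map_zero]

theorem tr_five (h : Fpf g) (h5 : g ^ 5 = 1) : g.1.trace = 0 ∨ g.1.trace = 1 := by
  obtain ⟨-, i2, b, e⟩ := quad g
  have e1 : (g ^ 2).1 + (g ^ 2)⁻¹.1 + (g.1 + g⁻¹.1) + 1 = 0 := ext_of_mulVec_single fun i => by
    have : g * g ^ 2 = (g ^ 2)⁻¹ := eq_inv_of_mul_eq_one_left (by rw [← h5]; group)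
    refine (h _ ?_).trans (zero_mulVec _).symm
    rw [ac_def, mulVec_mulVec]
    simp only [mul_add, mul_one, ← Submonoid.coe_mul]
    rw [this, show g * (g ^ 2)⁻¹ = g⁻¹ by group, mul_inv_cancel, ← sq, Submonoid.coe_one]
    congr 1; abel
  rw [bb_sq] at e
  have e2 : (g.1.trace + 1) • (g.1 + g⁻¹.1) = (b + 1) • 1 := eq_M (by
    linear_combination (norm := module) e + e1 - add_M ((g ^ 2).1 + (g ^ 2)⁻¹.1))
  have a1 := congrFun (congrFun e2 (.inl 0)) (.inl 0)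
  have a2 := congrFun (congrFun e2 (.inl 1)) (.inl 1)
  simp only [Matrix.smul_apply, one_apply_eq, smul_eq_mul] at a1 a2
  grind

theorem tr_three (h3 : g ^ 3 = 1) : g.1.trace = 0 ∨ g.1.trace = 1 := by
  have := tr_pow g 1
  rw [pow_one, show g ^ 2 = g⁻¹ from eq_inv_of_mul_eq_one_left (by rw [← pow_succ, h3]),
    (quad g).1] at this
  grind

theorem tr_four (h4 : g ^ 4 = 1) : g.1.trace = 0 := by
  have := tr_pow g 2
  rw [show 2 ^ 2 = 4 by rfl, h4, tr_one] at this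
  exact pow_eq_zero_iff (by decide) |>.1 this.symm

theorem Fpf.cube (h : Fpf y) (h3 : y ^ 3 = 1) (x : V F) : ac y (ac y x) = ac y x + x :=
  eq_of_add (h _ (by
    rw [map_add, map_add, ← ac_mul, ← ac_mul, ← pow_three', h3, ac_one]; abel))

theorem Fpf.mul (hy : Fpf y) (hz : Fpf z) (y3 : y ^ 3 = 1) (z3 : z ^ 3 = 1)
    (h5 : (y * z⁻¹) ^ 5 = 1) : Fpf (y * z) := fun x hx => by
  have K : ∀ x, ac z x = ac y x + x → ac z (ac y x) = ac y (ac y x) + ac y x ∧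
      ac (y * z⁻¹) x = ac y (ac y x) := fun x e => by
    have e1 : ac z (ac y x) = x := by
      rw [show ac y x = ac z x + x by rw [e, add_assoc, add_self, add_zero], map_add, hz.cube z3,
        add_right_comm, add_self, zero_add]
    exact ⟨by rw [e1, hy.cube y3, add_right_comm, add_self, zero_add], by rw [ac_mul, ac_inv_of e1]⟩
  have k0 : ac z x = ac y x + x := by
    rw [← hy.cube y3, ← ac_inv_of (show ac y (ac z x) = x from ac_mul y z x ▸ hx), ← ac_mul,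
      inv_eq_of_mul_eq_one_right (show y * (y * y) = 1 by rw [← pow_three, y3])]
  have kn : ∀ n, ac ((y * z⁻¹) ^ n) x = ac (y ^ (2 * n)) x ∧
      ac z (ac (y ^ (2 * n)) x) = ac y (ac (y ^ (2 * n)) x) + ac (y ^ (2 * n)) x := fun n => by
    induction n with
    | zero => simpa [ac_one] using k0
    | succ n ih =>
      rw [pow_succ', ac_mul, ih.1, mul_add, add_comm (2 * n), pow_add, mul_one, sq, ac_mul (y * y),
        ac_mul y y]
      exact ⟨(K _ ih.2).2, (K _ (K _ ih.2).1).1⟩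
  have := (kn 5).1
  rw [h5, show 2 * 5 = 3 * 3 + 1 by rfl, pow_succ, pow_mul, y3, one_pow, one_mul, ac_one] at this
  exact hy x this.symm

end Cfsg.Lib.Sp4E
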