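import Cfsg.Agent.Lib.Sp4E.Base

/-!
# Simple subgroups of `Sp₄(2ⁿ)` containing a transvection: generalities and the root case
-/

set_option autoImplicit false

namespace Cfsg.Lib.Sp4E

open Matrix Cfsg.Lib.Symp

variable {F : Type*} [Field F]

/-- The hypotheses, invariant under the exceptional isogeny. -/
structure Hy (P : Subgroup (Sp F)) : Prop where
  simple : IsSimpleGroup P
  nab : ¬ IsMulCommutative P
  cen : ∀ c : Sp F, (∀ g ∈ P, c * g = g * c) → c = 1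
  sub : ∀ (k : Subfield F) (c : Sp F), (∀ g ∈ P, ∀ i j, (c⁻¹ * g * c).1 i j ∈ k) → k = ⊤
  ne : P ≠ ⊤
  big : ∃ a : F, a ≠ 0 ∧ a ≠ 1

/-- Centres of the transvections in `P`. -/
def D (P : Subgroup (Sp F)) (u : V F) : Prop := u ≠ 0 ∧ tv u ∈ P

variable {P : Subgroup (Sp F)} {u v w x : V F}

theorem tv_ac {g : Sp F} (hg : g ∈ P) (hu : tv u ∈ P) : tv (ac g u) ∈ P :=
  conj_tv g u ▸ P.mul_mem (P.mul_mem hg hu) (P.inv_mem hg)

theorem D.ac (hu : D P u) {g : Sp F} (hg : g ∈ P) : D P (ac g u) := ⟨ac_ne hu.1, tv_ac hg hu.2⟩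

variable [CharP F 2]

theorem Hy.gen (h : Hy P) (hu : D P u) :
    Subgroup.closure {t | ∃ g ∈ P, t = tv (ac g u)} = P := by
  set N := Subgroup.closure {t | ∃ g ∈ P, t = tv (ac g u)}
  have h1 : N ≤ P := (Subgroup.closure_le _).2 fun _ ⟨g, hg, e⟩ => e ▸ (hu.ac hg).2
  have h2 : ∀ g ∈ P, ∀ n ∈ N, g * n * g⁻¹ ∈ N := fun g hg n hn => by
    induction hn using Subgroup.closure_induction with
    | mem t ht =>
      obtain ⟨k, hk, rfl⟩ := ht
      exact Subgroup.subset_closure ⟨g * k, P.mul_mem hg hk, by rw [conj_tv, ac_mul]⟩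
    | one => simp
    | mul a b _ _ ha hb => rw [← conj_mul]; exact N.mul_mem ha hb
    | inv a _ ha => rw [← conj_inv]; exact N.inv_mem ha
  have := h.simple
  rcases (⟨fun n hn g => h2 g g.2 n hn⟩ : (N.subgroupOf P).Normal).eq_bot_or_eq_top with e | e
  · have h3 : (⟨tv u, hu.2⟩ : P) ∈ N.subgroupOf P :=
      Subgroup.subset_closure ⟨1, P.one_mem, by rw [ac_one]; rfl⟩
    rw [e, Subgroup.mem_bot] at h3
    exact absurd (tv_eq_one (congrArg Subtype.val h3)) hu.1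
  · exact le_antisymm h1 (Subgroup.subgroupOf_eq_top.1 e)

theorem Hy.ind (h : Hy P) (hu : D P u) {X : V F → Prop}
    (hX : ∀ z, D P z → (∃ g ∈ P, z = ac g u) → ∀ x, X x → X (ac (tv z) x)) :
    ∀ g ∈ P, ∀ x, X x → X (ac g x) := fun g hg => by
  rw [← h.gen hu] at hg
  induction hg using Subgroup.closure_induction_left with
  | one => intro x hx; rwa [ac_one]
  | mul_left t ht a _ ih =>
    obtain ⟨k, hk, rfl⟩ := ht
    intro x hx; rw [ac_mul]; exact hX _ (hu.ac hk) ⟨k, hk, rfl⟩ _ (ih x hx)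
  | inv_mul_cancel t ht a _ ih =>
    obtain ⟨k, hk, rfl⟩ := ht
    intro x hx; rw [tv_inv, ac_mul]; exact hX _ (hu.ac hk) ⟨k, hk, rfl⟩ _ (ih x hx)

theorem Hy.sp (h : Hy P) (hu : D P u) (hx : x ≠ 0) : ∃ g ∈ P, f x (ac g u) ≠ 0 := by
  by_contra! H
  refine hx (tv_eq_one (h.cen _ fun g hg => (comm_of_fix ?_).symm))
  refine h.ind hu (X := (· = x)) ?_ g hg x rfl
  rintro _ - ⟨k, hk, rfl⟩ _ rfl
  rw [ac_tv, H k hk, zero_smul, add_zero]

theorem Hy.cn (h : Hy P) (hu : D P u) (hv : v ≠ 0) : ∃ w, D P w ∧ f u w ≠ 0 ∧ f v w ≠ 0 := by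
  by_contra! H
  obtain ⟨g, hg, h1⟩ := h.sp hu hu.1
  obtain ⟨k, hk, h2⟩ := h.sp (hu.ac hg) hv
  refine h2 ?_
  rw [← inv_inv k, ← f_ac_left]
  refine h.ind hu (X := fun x => ∀ w, D P w → f u w ≠ 0 → f x w = 0) ?_ _ (P.inv_mem hk) v H _
    (hu.ac hg) h1
  intro z hz _ x hx w hw hw'
  by_cases h3 : f u z = 0
  · rw [f_ac_left, tv_inv]
    exact hx _ (hw.ac hz.2) (by rwa [ac_tv, map_add, map_smul, h3, smul_zero, add_zero])
  · rw [ac_tv, hx z hz h3, zero_smul, add_zero, hx w hw hw']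

theorem Hy.frame (h : Hy P) (hu : D P u) {k : Subfield F} (hk : ∀ x y, D P x → D P y → f x y ∈ k) :
    ∃ a b r s, Fr a b r s ∧ ∀ R : V F → Prop, (∀ x, D P x → R x) → (∀ x y, R x → R y → R (x + y)) →
      (∀ c ∈ k, ∀ x, R x → R (c • x)) → ∀ i, R (Sum.elim ![a, b] ![r, s] i) := by
  obtain ⟨w, hw, h1, -⟩ := h.cn hu hu.1
  obtain ⟨x, hx, h2, h3⟩ := exists_perp u w
  obtain ⟨g, hg, h4⟩ := h.sp hu hx
  let π : V F → V F := fun y => y + (f y w / f u w) • u + (f y u / f u w) • w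
  have p1 : ∀ y, f (π y) u = 0 := fun y => by simp [π, f_self, f_comm w u]; grind
  have p2 : ∀ y, f (π y) w = 0 := fun y => by simp [π, f_self]; grind
  have p3 : ∀ y z, f y u = 0 → f y w = 0 → f y (π z) = f y z := fun y z a b => by simp [π, a, b]
  have h5 : π (ac g u) ≠ 0 := fun e => h4 (by rw [← p3 x _ h2 h3, e, map_zero])
  obtain ⟨g', hg', h6⟩ := h.sp hu h5
  have ha := hu.ac hg
  have hb := hu.ac hg'
  generalize ac g u = a at *
  generalize ac g' u = b at *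
  have h7 : f (π a) b ∈ k := by
    simp only [π, map_add, map_smul, LinearMap.add_apply, LinearMap.smul_apply, smul_eq_mul]
    apply_rules [add_mem, mul_mem, div_mem]
  refine ⟨u, π a, (f u w)⁻¹ • w, (f (π a) b)⁻¹ • π b, ⟨by rw [f_comm, p1], by simp [h1],
    by simp [f_comm u, p1], by simp [p2], by simp [p3 _ _ (p1 _) (p2 _), h6],
    by simp [f_comm w, p2]⟩, fun R r1 r2 r3 i => ?_⟩
  have r4 : ∀ y, D P y → R (π y) := fun y hy => r2 _ _ (r2 _ _ (r1 _ hy)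
    (r3 _ (div_mem (hk _ _ hy hw) (hk _ _ hu hw)) _ (r1 _ hu)))
    (r3 _ (div_mem (hk _ _ hy hu) (hk _ _ hu hw)) _ (r1 _ hw))
  rcases i with i | i <;> fin_cases i
  exacts [r1 _ hu, r4 _ ha, r3 _ (inv_mem (hk _ _ hu hw)) _ (r1 _ hw), r3 _ (inv_mem h7) _ (r4 _ hb)]

theorem Hy.sub_top (h : Hy P) (hu : D P u) {k : Subfield F}
    (hk : ∀ x y, D P x → D P y → f x y ∈ k) : k = ⊤ := by
  obtain ⟨a, b, r, s, H, hR⟩ := h.frame hu hk
  obtain ⟨c, hc⟩ := H.exists_sp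
  have key : ∀ g ∈ P, ∀ i j, f (ac (c⁻¹ * g * c) (Pi.single j 1)) (Pi.single i 1) ∈ k := by
    intro g hg i j
    rw [ac_mul, ac_mul, f_ac_left, inv_inv, hc, hc]
    refine hR (fun y => f _ y ∈ k) (fun y hy => ?_) (fun _ _ p q => by simpa using add_mem p q)
      (fun _ p _ q => by simpa using mul_mem p q) i
    rw [f_ac_left]
    exact hR (fun x => f x _ ∈ k) (fun x hx => hk _ _ hx (hy.ac (P.inv_mem hg)))
      (fun _ _ p q => by simpa using add_mem p q) (fun _ p _ q => by simpa using mul_mem p q) j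
  refine h.sub k c fun g hg i j => ?_
  have : (c⁻¹ * g * c).1 i j = ac (c⁻¹ * g * c) (Pi.single j 1) i := by simp [ac_def]
  rw [this]
  rcases i with i | i
  · rw [coord_inl (ac _ _)]; exact key g hg _ _
  · rw [coord_inr (ac _ _)]; exact key g hg _ _

theorem tv_add (u : V F) (a b : F) : tv (a • u) * tv (b • u) = tv ((a + b) • u) := ext' fun x => by
  simp only [ac_mul, ac_tv, map_add, map_smul, LinearMap.add_apply, LinearMap.smul_apply,
    f_self, smul_eq_mul]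
  match_scalars <;> grind

variable [Finite F]

theorem Hy.trans (h : Hy P) (hu : D P u) (hw : D P w) : ∃ g ∈ P, ac g u = w := by
  obtain ⟨g, hg, h1⟩ := h.sp hu hw.1
  obtain ⟨k, hk, -, h2, -⟩ := exists_sw hw.2 (hu.ac hg).2 h1
  exact ⟨k * g, P.mul_mem hk hg, by rw [ac_mul, h2]⟩

theorem Hy.tr (h : Hy P) (hu : D P u) (hw : tv w ∈ P) {m : F} (hm : tv (m • u) ∈ P) :
    tv (m • w) ∈ P := by
  by_cases h0 : w = 0
  · rw [h0, smul_zero, tv_zero]; exact P.one_mem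
  obtain ⟨g, hg, rfl⟩ := h.trans hu ⟨h0, hw⟩
  rw [← map_smul]; exact tv_ac hg hm

/-- The scalars. -/
def Hy.M (h : Hy P) (hu : D P u) : Subfield F where
  carrier := {m | tv (m • u) ∈ P}
  mul_mem' {a b} ha hb := by rw [Set.mem_setOf_eq, mul_smul]; exact h.tr hu hb ha
  one_mem' := by simpa using hu.2
  add_mem' {a b} ha hb := by rw [Set.mem_setOf_eq, ← tv_add]; exact P.mul_mem ha hb
  zero_mem' := by rw [Set.mem_setOf_eq, zero_smul, tv_zero]; exact P.one_mem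
  neg_mem' {a} ha := by rwa [CharTwo.neg_eq]
  inv_mem' a ha := by
    by_cases h0 : a = 0
    · rwa [h0, _root_.inv_zero, ← h0]
    obtain ⟨g, hg, e⟩ := h.trans ⟨smul_ne_zero h0 hu.1, ha⟩ hu
    have := tv_ac hg hu.2
    rwa [Set.mem_setOf_eq, ← e, map_smul, inv_smul_smul₀ h0]

theorem Hy.M_top (h : Hy P) (hu : D P u) {m : F} (h0 : m ≠ 0) (h1 : m ≠ 1) (hm : tv (m • u) ∈ P) :
    h.M hu = ⊤ := by
  refine h.sub_top hu fun x y hx hy => ?_
  by_cases hc : f x y = 0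
  · rw [hc]; exact zero_mem _
  have hm' : m ∈ h.M hu := hm
  obtain ⟨b, hb, p1⟩ := exists_swap hx.2 hy.2 hc
  obtain ⟨b', hb', p2⟩ := exists_swap (h.tr hu hx.2 (mul_mem hm' hm' :)) hy.2 (by simp [h0, hc])
  replace p2 := h.tr hu p2 hm
  simp only [map_smul, LinearMap.smul_apply, smul_eq_mul] at hb'
  have e1 : m * b' = b := by
    have : (m * b' + b) ^ 2 * f x y = 0 := by grind
    grind
  rw [smul_smul, e1] at p2
  have e2 : f (b • (x + y)) (b • ((m * m) • x + y)) = (1 + m) ^ 2 := by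
    simp [f_self, f_comm y x]; grind
  obtain ⟨d, hd, p3⟩ := exists_swap p1 p2 (by rw [e2]; grind)
  rw [e2] at hd
  have e3 : d • (b • (x + y) + b • ((m * m) • x + y)) = (b * (1 + m)) • x := by
    have : (d * (1 + m) + 1) ^ 2 = 0 := by grind
    match_scalars <;> grind
  have p4 : b * (1 + m) ∈ h.M hu := h.tr hx hu.2 (e3 ▸ p3)
  have p5 := div_mem p4 (add_mem (one_mem _) hm')
  rw [mul_div_cancel_right₀ _ (by grind)] at p5
  rw [show f x y = (b ^ 2)⁻¹ from eq_inv_of_mul_eq_one_right hb]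
  exact inv_mem (pow_mem p5 2)

theorem add_of {S : ∀ (c : F) x, tv x ∈ P → tv (c • x) ∈ P} {x y : V F} (hx : tv x ∈ P)
    (hy : tv y ∈ P) (e : f x y ≠ 0) : tv (x + y) ∈ P := by
  obtain ⟨b, hb, p⟩ := exists_swap hx hy e
  have := S b⁻¹ _ p
  rwa [inv_smul_smul₀ (by grind)] at this

theorem add_of' (S : ∀ (c : F) x, tv x ∈ P → tv (c • x) ∈ P) {x y z : V F} (hx : tv x ∈ P)
    (hy : tv y ∈ P) (hz : tv z ∈ P) (e1 : f x y = 0) (e2 : f x z ≠ 0) (e3 : f y z ≠ 0)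
    (e4 : f x z ≠ f y z) : tv (x + y) ∈ P := by
  have := add_of (S := S) (add_of (S := S) (add_of (S := S) hx hz e2) hy
    (by simpa [e1, f_comm z y])) hz (by simp [f_self]; grind)
  rwa [add_right_comm x, add_assoc, add_self, add_zero] at this

theorem Hy.add (h : Hy P) (S : ∀ (c : F) x, tv x ∈ P → tv (c • x) ∈ P) (x y : V F) (hx : tv x ∈ P)
    (hy : tv y ∈ P) : tv (x + y) ∈ P := by
  obtain ⟨m, h0, h1⟩ := h.big
  by_cases e : f x y = 0
  swap; · exact add_of (S := S) hx hy e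
  by_cases a1 : x = 0
  · rwa [a1, zero_add]
  by_cases a2 : y = 0
  · rwa [a2, add_zero]
  by_cases a3 : x + y = 0
  · rw [a3, tv_zero]; exact P.one_mem
  obtain ⟨z, hz, e1, e2⟩ := h.cn ⟨a1, hx⟩ a2
  obtain ⟨z', hz', e3, e4⟩ := h.cn ⟨a1, hx⟩ a3
  rw [map_add, LinearMap.add_apply] at e4
  by_cases e5 : f x z = f y z
  swap; · exact add_of' S hx hy hz.2 e e1 e2 e5
  by_cases e6 : f y z' = 0
  swap; · exact add_of' S hx hy hz'.2 e e3 e6 (by grind)
  have p1 := add_of' S hx (S m _ hy) hz.2 (by simp [e]) e1 (by simp [h0, e2]) (by simp [e5, e2, h1])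
  have h2 : 1 + m⁻¹ ≠ 0 := by grind
  have := add_of' S (S (1 + m⁻¹) _ hx) (S m⁻¹ _ p1) hz'.2 (by simp [e, f_self]) (by simp [h2, e3])
    (by simp [e6, e3, h0]) (by simp [e6, e3])
  rwa [show (1 + m⁻¹) • x + m⁻¹ • (x + m • y) = x + y by match_scalars <;> grind] at this

theorem Hy.nr (h : Hy P) (hu : D P u) {m : F} (h0 : m ≠ 0) (hm : tv (m • u) ∈ P) : m = 1 := by
  by_contra h1
  have S : ∀ (c : F) x, tv x ∈ P → tv (c • x) ∈ P := fun c x hx =>
    h.tr hu hx ((h.M_top hu h0 h1 hm).ge trivial)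
  have C := h.add S
  obtain ⟨a, b, r, s, H, hR⟩ := h.frame hu (k := ⊤) fun _ _ _ _ => trivial
  have hR' := hR (tv · ∈ P) (fun _ p => p.2) C fun c _ => S c
  refine h.ne (eq_top_of_tvSp_mem P fun x c => ?_)
  obtain ⟨d, rfl⟩ := exists_sqrt c
  rw [← mul_one (d ^ 2), ← tvSp_smul]
  refine S _ _ ?_
  have : x = f x r • a + f x s • b + f x a • r + f x b • s := eq_of_add (H.eq_zero
    (by simp [f_self, f_comm b a, f_comm r a, f_comm s a, H.ab, H.ar, H.as]; grind)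
    (by simp [f_self, f_comm r b, f_comm s b, H.ab, H.br, H.bs]; grind)
    (by simp [f_self, f_comm s r, H.ar, H.br, H.rs]; grind)
    (by simp [f_self, H.as, H.bs, H.rs]; grind))
  rw [this]
  exact C _ _ (C _ _ (C _ _ (S _ _ (hR' (.inl 0))) (S _ _ (hR' (.inl 1)))) (S _ _ (hR' (.inr 0))))
    (S _ _ (hR' (.inr 1)))

end Cfsg.Lib.Sp4E
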